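import Cfsg.Agent.Char.Deg3

/-!
The theorems of Broline and Garrison (Isaacs 12.19, 12.21).
-/

set_option autoImplicit false

namespace CF.Char

open Cfsg Subgroup CF.BG CF.Clifford

universe u

variable {G : Type u} [Group G] [Finite G] {χ : G → ℂ} {d m n p : ℕ}

theorem irr_res_of_sup {H : Subgroup G} (hχ : IsIrrCharacter G χ) (h : charKer χ ⊔ H = ⊤) :
    IsIrrCharacter H fun x => χ x := by
  have := charKer_normal (irr_isClassFunction hχ)
  obtain ⟨ψ, a, b⟩ := exists_irr_quotient hχ _ le_rfl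
  rw [show (fun x : H => χ x) = fun x => ψ ((QuotientGroup.mk' _).comp H.subtype x) from
    funext fun x => congrFun b x]
  refine irr_comp_of_surjective a _ (MonoidHom.range_eq_top.1 ?_)
  rw [MonoidHom.range_comp, range_subtype]
  refine comap_injective (QuotientGroup.mk'_surjective _) ?_
  rw [comap_map_eq, QuotientGroup.ker_mk', sup_comm, h, comap_top]

theorem exists_vanish {H : Subgroup G} (hχ : IsIrrCharacter G χ) (m : IsCoatom H)
    (l : ¬ charKer χ ≤ H) (h : ∀ ψ, IsIrrCharacter G ψ → charKer ψ < charKer χ →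
      charDegree ψ ≤ charDegree χ) :
    ∃ C ≤ H, C.Normal ∧ ∀ x ∈ H, x ∉ C → χ x = 0 := by
  have := Fintype.ofFinite G
  have := Fintype.ofFinite H
  have s : ∀ K : Subgroup G, ¬ K ≤ H → K ⊔ H = ⊤ := fun K l => m.2 _ (right_lt_sup.2 l)
  have i := irr_res_of_sup hχ (s _ l)
  have u : ∀ ψ : IrrCharacter G, classInner (indFun H fun x => χ x) ψ ≠ 0 → ∀ x : H, ψ.1 x = χ x :=
    fun ψ a => by
    rw [inner_indFun_left _ _ (irr_isClassFunction ψ.2), inner_irr_ne_zero_comm] at a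
    have r := char_restrict (irr_isCharacter ψ.2) H
    by_cases b : charKer ψ.1 ≤ H
    · refine congrFun (Char.eq_of_inner_ne_zero_of_one_eq r i a ?_)
      have c := BlockB.irr_charDegree_eq ψ
      have e := BlockB.charDegree_eq (irr_isCharacter hχ)
      refine c.symm.trans (Eq.trans (Nat.cast_inj.2 (le_antisymm (h _ ψ.2 (lt_of_le_of_ne
        (fun x hx => ?_) fun z => l (z ▸ b))) (irr_one_le_of_inner_ne_zero r i a e.symm c.symm))) e)
      have := charKer_le_of_inner_ne_zero r i a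
      rw [charKer_restrict (irr_isCharacter ψ.2), charKer_restrict (irr_isCharacter hχ)] at this
      exact @this ⟨x, b hx⟩ hx
    · exact congrFun (irr_eq_of_inner_ne_zero (irr_res_of_sup ψ.2 (s _ b)) i a)
  have v : ∀ x : H, indFun H (fun _ => 1) x * χ x =
      (∑ ψ : IrrCharacter G, classInner (indFun H fun x => χ x) ψ) * χ x := fun x => by
    rw [Finset.sum_mul, ← congrFun (indFun_restrict H (irr_isClassFunction hχ)) x]
    exact (classFun_apply_eq_sum (indFun_isClassFunction _ _) _).trans (Finset.sum_congr rfl fun η _ =>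
      (eq_or_ne (classInner (indFun H fun x => χ x) η) 0).elim (fun w => by rw [w, zero_mul, zero_mul])
        fun w => by rw [u η w])
  rw [← mul_right_cancel₀ (irr_one_ne_zero hχ) (v 1)] at v
  exact ⟨_, charKer_indFun_le H char_const_one one_ne_zero, charKer_normal (indFun_isClassFunction _ _),
    fun x hx a => (mul_eq_mul_right_iff.1 (v ⟨x, hx⟩)).resolve_left fun b =>
      a ((mem_charKer_iff (char_indFun_one H)).2 b)⟩

theorem broline (hχ : IsIrrCharacter G χ) (h : ¬ charKer χ ≤ 𝐅 ⊤ ∨ charKer χ = 𝐅 ⊤ ∧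
    Group.IsSolvable G ∧ charKer χ ≠ ⊤) :
    ∃ ψ, IsIrrCharacter G ψ ∧ charKer ψ < charKer χ ∧ charDegree χ < charDegree ψ := by
  by_contra! a
  have kn := charKer_normal (irr_isClassFunction hχ)
  have key : ∀ {M P : Subgroup G} {p : ℕ}, M.Normal → Syl p P M → ¬ P.Normal →
      M ≤ charKer χ ⊔ P → ∃ H C, 𝐍 P ≤ H ∧ C.Normal ∧ (∀ x ∈ H, x ∉ C → χ x = 0) ∧ ¬ P ≤ C :=
    fun {M P p} n s b c => by
    obtain ⟨H, m, l⟩ := (eq_top_or_exists_le_coatom (𝐍 P)).resolve_left fun e =>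
      b (normalizer_eq_top_iff.1 e)
    have f : ∀ {N : Subgroup G}, N.Normal → Syl p P N → ¬ N ≤ H := fun n s e => m.1 (eq_top_iff.2
      ((s.syl_frattini_sup (normalIn_top.2 n)).ge.trans (sup_le e (inf_le_right.trans l))))
    obtain ⟨C, x, y, z⟩ := exists_vanish hχ m (fun e => f n s (c.trans (sup_le e
      (le_normalizer.trans l)))) a
    exact ⟨H, C, l, y, z, fun e => f (N := M ⊓ C) inferInstance (s.of_le (le_inf s.le e) inf_le_left)
      (inf_le_right.trans x)⟩
  have kc : ∀ {H C : Subgroup G}, (∀ x ∈ H, x ∉ C → χ x = 0) → charKer χ ⊓ H ≤ C :=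
    fun z x hx => by_contra fun e => irr_one_ne_zero hχ
      (((mem_charKer_iff (irr_isCharacter hχ)).1 hx.1).symm.trans (z x hx.2 e))
  obtain h | ⟨h, s, t⟩ := h
  · refine h (le_F (normalIn_top.2 kn) (nil_of_forall_syl fun p _ _ => ?_))
    obtain ⟨P, hP⟩ := exists_syl p (charKer χ)
    refine ⟨P, hP, ?_⟩
    by_contra b
    obtain ⟨H, C, l, -, z, e⟩ := key kn hP (fun _ => b le_normalizer_of_normal) le_sup_left
    exact e ((le_inf hP.le (le_normalizer.trans l)).trans (kc z))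
  have sj := QuotientGroup.mk'_surjective (charKer χ)
  have : Nontrivial (G ⧸ charKer χ) := QuotientGroup.nontrivial_iff.2 t
  obtain ⟨N, -, mn⟩ := exists_minN (K := (⊤ : Subgroup (G ⧸ charKer χ))) (A := ⊤) top_ne_bot
    le_normalizer_of_normal
  obtain ⟨p, hp, e⟩ := mn.exists_abelem inferInstance
  have nn := normalIn_top.1 ⟨le_top, mn.norm⟩
  have km : charKer χ ≤ N.comap (QuotientGroup.mk' _) :=
    (QuotientGroup.ker_mk' _).ge.trans (ker_le_comap _ _)
  have nk : ¬ N.comap (QuotientGroup.mk' _) ≤ charKer χ := fun b => mn.ne_bot (by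
    rw [← map_comap_eq_self_of_surjective sj N, Subgroup.map_eq_bot_iff, QuotientGroup.ker_mk']
    exact b)
  obtain ⟨P, hP⟩ := exists_syl p (N.comap (QuotientGroup.mk' (charKer χ)))
  have mp : N.comap (QuotientGroup.mk' _) ≤ charKer χ ⊔ P := by
    have := (hP.map (QuotientGroup.mk' _)).eq_of_pi (by rw [map_comap_eq_self_of_surjective sj]; exact e.pi)
    rw [map_comap_eq_self_of_surjective sj] at this
    rw [← this, comap_map_eq, QuotientGroup.ker_mk', sup_comm]
  have nl : Nil (charKer χ) := h ▸ F_nil ⊤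
  obtain ⟨H, C, l, _, z, b⟩ := key (nn.comap _) hP (fun _ => nk (mp.trans (sup_le le_rfl (h ▸ le_F
    (normalIn_top.2 ‹_›) hP.pi.nil)))) mp
  generalize hM : N.comap (QuotientGroup.mk' (charKer χ)) = M at km nk hP mp
  have : M.Normal := hM ▸ nn.comap _
  obtain c | c := mn.eq_bot_or (N := (M ⊓ C).map (QuotientGroup.mk' _)) (map_le_iff_le_comap.2
    (hM ▸ inf_le_left)) (normalIn_top.2 (Normal.map inferInstance _ sj)).norm
  · rw [Subgroup.map_eq_bot_iff, QuotientGroup.ker_mk'] at c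
    have := Fintype.ofFinite M
    have := Fintype.ofFinite (charKer χ)
    classical
    refine nk (le_charKer_of_sum_ne_zero hχ M ?_)
    rw [← Finset.sum_filter_add_sum_filter_not _ fun x : M => x.1 ∈ charKer χ, Finset.sum_eq_zero
      (s := Finset.univ.filter fun x : M => x.1 ∉ charKer χ) fun x hx => ?_, add_zero,
        Finset.sum_congr rfl fun x hx => (mem_charKer_iff (irr_isCharacter hχ)).1
          (Finset.mem_filter.1 hx).2, Finset.sum_const, nsmul_eq_mul]
    · exact mul_ne_zero (Nat.cast_ne_zero.2 (Finset.card_ne_zero.2 ⟨1, by simp⟩)) (irr_one_ne_zero hχ)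
    obtain ⟨u, hu, v, hv, r⟩ := mem_sup_of_normal_left.1 (mp x.2)
    rw [← r, hu]
    exact z v (l (le_normalizer hv)) fun w => (Finset.mem_filter.1 hx).2
      (r ▸ mul_mem hu (c ⟨hP.le hv, w⟩))
  refine b (hP.pi.le_of_relIndex hP.le le_normalizer_of_normal ?_)
  have r : M = (M ⊓ C) ⊔ charKer χ := by
    conv_lhs => rw [← hM, ← c, comap_map_eq, QuotientGroup.ker_mk']
  rw [← inf_relIndex_left, ← congrArg (M ⊓ C).relIndex r.symm, relIndex_sup_left]
  refine (nl.hall_O {p}).idx_of_le (le_inf ((O_le _ _).trans km) ((le_inf (O_le _ _) ?_).trans (kc z)))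
  exact (hP.le_of_normal ⟨(O_le _ _).trans km, le_top.trans ((normalIn_top.2 kn).O _).norm⟩
    (O_pi _ _)).trans (le_normalizer.trans l)

theorem cd_quot_F_lt (s : Group.IsSolvable G) [(𝐅 (⊤ : Subgroup G)).Normal]
    (h : 𝐅 (⊤ : Subgroup G) ≠ ⊤) : (𝐜𝐝 (G ⧸ 𝐅 (⊤ : Subgroup G))).ncard < (𝐜𝐝 G).ncard := by
  obtain ⟨b, x, y⟩ := Set.exists_max_image _ id cd_finite ⟨1, one_mem_cd (G := G)⟩
  refine Set.ncard_lt_ncard (Set.ssubset_def ▸ And.intro (cd_quot _) fun l => ?_) cd_finite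
  obtain ⟨χ, rfl⟩ := l x
  have k := le_charKer_inflate (𝐅 (⊤ : Subgroup G)) χ.1
  obtain ⟨ψ, u, -, v⟩ := broline (irr_inflate _ χ.2) (or_iff_not_imp_left.2 fun w =>
    ⟨(not_not.1 w).antisymm k, s, fun z => h (eq_top_iff.2 (z.ge.trans (not_not.1 w)))⟩)
  exact v.not_ge (y _ ⟨⟨ψ, u⟩, rfl⟩)

theorem garrison (n : ℕ) : ∀ (G : Type u) [Group G] [Finite G], Group.IsSolvable G →
    (𝐜𝐝 G).ncard ≤ n → ∃ N : ℕ → Subgroup G, N 0 = ⊥ ∧ N n = ⊤ ∧ (∀ i, (N i).Normal) ∧
      ∀ i, N i ≤ N (i + 1) ∧ ∃ k, (N (i + 1)).lowerCentralSeries k ≤ N i := by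
  induction n with
  | zero => exact fun G _ _ _ h => absurd (Nat.le_zero.1 h) (Set.ncard_ne_zero_of_mem one_mem_cd cd_finite)
  | succ n ih =>
    intro G _ _ s h
    have : (𝐅 (⊤ : Subgroup G)).Normal := normalIn_top.1 (F_normal ⊤)
    have nl := nil_iff_lcs.1 (F_nil (⊤ : Subgroup G))
    by_cases e : 𝐅 (⊤ : Subgroup G) = ⊤
    · refine ⟨fun i => if i = 0 then ⊥ else ⊤, rfl, rfl, fun i => by dsimp only; split_ifs <;> infer_instance, ?_⟩
      rintro (_ | i)
      · exact ⟨bot_le, (e ▸ nl).imp fun _ => Eq.le⟩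
      · exact ⟨le_rfl, 0, le_top⟩
    obtain ⟨N, a, b, c, d⟩ := ih _ inferInstance (Nat.le_of_lt_succ ((cd_quot_F_lt s e).trans_le h))
    refine ⟨fun i => i.casesOn ⊥ fun j => (N j).comap (QuotientGroup.mk' _), rfl, by simp [b], ?_, ?_⟩
    · rintro (_ | i)
      exacts [normal_bot, (c i).comap _]
    rintro (_ | i)
    · refine ⟨bot_le, nl.imp fun _ w => ?_⟩
      simpa [a] using w
    refine ⟨comap_mono (d i).1, (d i).2.imp fun k w => map_le_iff_le_comap.1 ?_⟩
    rwa [map_lowerCentralSeries, map_comap_eq_self_of_surjective (QuotientGroup.mk'_surjective _)]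

end CF.Char
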